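import Cfsg.Agent.Lib.Helper93.M24TrioTab

/-!
# The 3795 trios: enumeration
-/

set_option autoImplicit false

namespace Cfsg.Agent.Lib.Helper93.Eng

open Cfsg Cfsg.Agent.Lib.Helper27 Cfsg.Agent.Lib.Helper92
open scoped Pointwise

theorem key_eq_of_fld {a b : ℕ} (ha : a < 2 ^ 72) (hb : b < 2 ^ 72) (h0 : fld a 0 = fld b 0)
    (h1 : fld a 1 = fld b 1) (h2 : fld a 2 = fld b 2) : a = b := by
  have e : ∀ x j, fld x j = x / 2 ^ (24 * j) % 2 ^ 24 := by
    intro x j
    show (x >>> (24 * j)) &&& 16777215 = _
    rw [Nat.shiftRight_eq_div_pow, show (16777215 : ℕ) = 2 ^ 24 - 1 from rfl,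
      Nat.and_two_pow_sub_one_eq_mod]
  rw [e, e] at h0 h1 h2
  norm_num at h0 h1 h2 ha hb
  omega

theorem trioTab_lt_pow (i : ℕ) : trioTab i < 2 ^ 72 :=
  lt_of_le_of_lt (Nat.and_le_right (n := Nat.shiftRight trioTable (Nat.mul 72 i))) (by norm_num)

/-- **enumeration of the trios.** -/
theorem trioEnum : IsEnum trios 3 3795 trioTab (fun _ => true) where
  card_eq := fun i hi _ => (decK_trio ((allBelow_iff _ _).1 trioTab_check i hi)).1
  mem := fun i hi _ => (decK_trio ((allBelow_iff _ _).1 trioTab_check i hi)).2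
  surj := by
    intro T hT
    obtain ⟨a, ha, h0⟩ := trio_cover hT (pt 0)
    have hex : ∃ b ∈ T, b ≠ a := by
      by_contra hcon
      push Not at hcon
      have hsub : T ⊆ {a} := fun c hc => Finset.mem_singleton.2 (hcon c hc)
      have := Finset.card_le_card hsub
      rw [hT.1, Finset.card_singleton] at this
      omega
    obtain ⟨b, hb, hba⟩ := hex
    obtain ⟨k, hk, hka⟩ := (mem_supports_iff_enc a).1 (hT.2.1 a ha).1
    obtain ⟨k', hk', hkb⟩ := (mem_supports_iff_enc b).1 (hT.2.1 b hb).1
    have hdis : enc k &&& enc k' = 0 := by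
      rw [← hka, ← hkb]; exact disjoint_iff_mask.1 (hT.2.2 a ha b hb hba.symm)
    have hpa : pc (enc k) = 8 := by rw [← hka, ← card_eq_pc]; exact (hT.2.1 a ha).2
    have hpb : pc (enc k') = 8 := by rw [← hkb, ← card_eq_pc]; exact (hT.2.1 b hb).2
    have hlow : ∀ x < 4096, enc x &&& 4095 = x := enc_low
    have hkk : k &&& k' = 0 := by
      have : (enc k &&& enc k') &&& 4095 = k &&& k' := by
        conv_rhs => rw [← hlow k hk, ← hlow k' hk']
        apply Nat.eq_of_testBit_eq
        intro i
        simp only [Nat.testBit_and]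
        cases (enc k).testBit i <;> cases (enc k').testBit i <;> cases (4095 : ℕ).testBit i <;> rfl
      rw [← this, hdis]; rfl
    have hodd : k &&& 1 = 1 := by
      have h1 : (mask a).testBit 0 = true := by
        have := (mem_iff_testBit a (pt 0)).1 h0
        rwa [idx_pt (by norm_num)] at this
      rw [hka] at h1
      have h2 : k.testBit 0 = true := by
        rw [← hlow k hk, Nat.testBit_and, h1]; rfl
      rw [Nat.and_one_is_mod]
      rw [Nat.testBit_zero] at h2
      simpa using h2
    have h1 := (allBelow_iff _ _).1 pair_check k hk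
    have hodd' : Nat.land k 1 = 1 := hodd
    have hkk' : Nat.land k k' = 0 := hkk
    have hdis' : Nat.land (enc k) (enc k') = 0 := hdis
    rw [bor_eq, Bool.or_eq_true, hodd', hpa] at h1
    rcases h1 with h1 | h1
    · exact absurd h1 (by decide)
    have h2 := (allBelow_iff _ _).1 h1 k' hk'
    rw [bor_eq, Bool.or_eq_true, hkk', hdis', hpb] at h2
    rcases h2 with h2 | h2
    · exact absurd h2 (by decide)
    obtain ⟨j, _, hj⟩ := (anyBelow_iff _ _).1 h2
    simp only [band_eq, Bool.and_eq_true, Nat.blt_eq] at hj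
    obtain ⟨hja, hjb, hlt⟩ := hj
    refine ⟨_, hlt, rfl, ?_⟩
    have hma := (memK_iff (enc_lt k)).1 hja
    have hmb := (memK_iff (enc_lt k')).1 hjb
    rw [← hka, unmask_mask] at hma
    rw [← hkb, unmask_mask] at hmb
    exact trio_unique hT (decK_trio ((allBelow_iff _ _).1 trioTab_check _ hlt)).2 ha hb hma hmb hba.symm
  inj := by
    intro i hi j hj _ _ h
    apply trioTab_inj hi hj
    have hc : ∀ x < 3795, fld (trioTab x) 2 &&& 1 = 1 ∧ fld (trioTab x) 1 < fld (trioTab x) 0 := by
      intro x hx
      have := (allBelow_iff _ _).1 trioTab_canon_check x hx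
      rwa [band_eq, Bool.and_eq_true, Nat.beq_eq, Nat.blt_eq] at this
    -- disjointness of the fields
    have hd : ∀ x < 3795, ∀ u < 3, ∀ v < 3, u ≠ v → fld (trioTab x) u &&& fld (trioTab x) v = 0 := by
      intro x hx u hu v hv huv
      have hT := (decK_trio ((allBelow_iff _ _).1 trioTab_check x hx))
      have hinj := injOn_of_card hT.1
      have := hT.2.2.2 _ (mem_decK.2 ⟨u, hu, rfl⟩) _ (mem_decK.2 ⟨v, hv, rfl⟩)
        (fun e => huv (hinj (by simpa using hu) (by simpa using hv) e))
      rwa [disjoint_iff_mask, mask_unmask (fld_lt _ _), mask_unmask (fld_lt _ _)] at this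
    have hmem : ∀ x y, x < 3795 → y < 3795 → decK 3 (trioTab x) = decK 3 (trioTab y) → ∀ u < 3,
        ∃ v < 3, fld (trioTab y) v = fld (trioTab x) u := by
      intro x y _ _ hxy u hu
      have : unmask (fld (trioTab x) u) ∈ decK 3 (trioTab y) := by
        rw [← hxy]; exact mem_decK.2 ⟨u, hu, rfl⟩
      obtain ⟨v, hv, hv'⟩ := mem_decK.1 this
      exact ⟨v, hv, unmask_injOn (fld_lt _ _) (fld_lt _ _) hv'⟩
    -- a field with bit 0 is field 2
    have hbit : ∀ x < 3795, ∀ v < 3, fld (trioTab x) v &&& 1 = 1 → v = 2 := by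
      intro x hx v hv hb
      by_contra hne
      have h1 := hd x hx v hv 2 (by norm_num) hne
      have h2 := (hc x hx).1
      have : (fld (trioTab x) v &&& fld (trioTab x) 2).testBit 0 = true := by
        rw [Nat.testBit_and]
        have e1 : (fld (trioTab x) v).testBit 0 = true := by
          rw [Nat.testBit_zero]; rw [Nat.and_one_is_mod] at hb; simpa using hb
        have e2 : (fld (trioTab x) 2).testBit 0 = true := by
          rw [Nat.testBit_zero]; rw [Nat.and_one_is_mod] at h2; simpa using h2
        rw [e1, e2]; rfl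
      rw [h1] at this
      simp at this
    have h2 : fld (trioTab i) 2 = fld (trioTab j) 2 := by
      obtain ⟨v, hv, hv'⟩ := hmem i j hi hj h 2 (by norm_num)
      have := hbit j hj v hv (by rw [hv']; exact (hc i hi).1)
      rw [← hv', this]
    -- fields 0, 1
    have hne0 : ∀ x < 3795, ∀ u < 3, fld (trioTab x) u ≠ 0 := by
      intro x hx u hu h0
      have hT := (decK_trio ((allBelow_iff _ _).1 trioTab_check x hx))
      have := (hT.2.2.1 _ (mem_decK.2 ⟨u, hu, rfl⟩)).2
      rw [card_unmask, h0] at this
      revert this; decide +kernel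
    have hcase : ∀ x y, x < 3795 → y < 3795 → decK 3 (trioTab x) = decK 3 (trioTab y) →
        fld (trioTab x) 2 = fld (trioTab y) 2 → ∀ u < 2,
        fld (trioTab x) u = fld (trioTab y) 0 ∨ fld (trioTab x) u = fld (trioTab y) 1 := by
      intro x y hx hy hxy h22 u hu
      obtain ⟨v, hv, hv'⟩ := hmem x y hx hy hxy u (by omega)
      have hv2 : v ≠ 2 := by
        rintro rfl
        have := hd x hx u (by omega) 2 (by norm_num) (by omega)
        rw [h22, hv', Nat.and_self] at this
        exact hne0 x hx u (by omega) this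
      have : v = 0 ∨ v = 1 := by omega
      rcases this with rfl | rfl
      · exact Or.inl hv'.symm
      · exact Or.inr hv'.symm
    have a0 := hcase i j hi hj h h2 0 (by norm_num)
    have a1 := hcase i j hi hj h h2 1 (by norm_num)
    have b0 := hcase j i hj hi h.symm h2.symm 0 (by norm_num)
    have b1 := hcase j i hj hi h.symm h2.symm 1 (by norm_num)
    have ci := (hc i hi).2
    have cj := (hc j hj).2
    have h0 : fld (trioTab i) 0 = fld (trioTab j) 0 := by
      rcases a0 with e | e
      · exact e
      · rcases a1 with e' | e' <;> rcases b0 with e'' | e'' <;> omega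
    have h1 : fld (trioTab i) 1 = fld (trioTab j) 1 := by
      rcases a1 with e | e
      · omega
      · exact e
    exact key_eq_of_fld (trioTab_lt_pow i) (trioTab_lt_pow j) h0 h1 h2

theorem ncard_trios : trios.ncard = 3795 := by
  have h := trioEnum.ncard (fun _ => True) (fun _ => true) (fun _ _ _ => by simp)
  simp only [and_true] at h
  have e : {x | x ∈ trios} = trios := rfl
  rw [e] at h
  rw [h]
  decide +kernel

end Cfsg.Agent.Lib.Helper93.Eng
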