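import Mathlib

set_option autoImplicit false

/-! Abstract extended binary Golay codes: self-dual `[24,12]` codes with minimum weight `≥ 8`. -/

namespace Cfsg.Agent.Lib.Helper93.AG

open Finset

/-- the ambient space -/
abbrev V := Fin 24 → ZMod 2

/-- support of a word -/
def supp (u : V) : Finset (Fin 24) := Finset.univ.filter fun i => u i ≠ 0

theorem hammingNorm_eq (u : V) : hammingNorm u = (supp u).card := rfl

theorem mem_supp {u : V} {i : Fin 24} : i ∈ supp u ↔ u i ≠ 0 := by simp [supp]

theorem zmod2_ne_zero : ∀ a : ZMod 2, a ≠ 0 ↔ a = 1 := by decide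

theorem zmod2_sub_ne_zero : ∀ a b : ZMod 2, a - b ≠ 0 ↔ ((a ≠ 0 ∧ ¬ b ≠ 0) ∨ (b ≠ 0 ∧ ¬ a ≠ 0)) := by
  decide

/-- indicator word of a set -/
def ind (S : Finset (Fin 24)) : V := fun i => if i ∈ S then 1 else 0

theorem supp_ind (S : Finset (Fin 24)) : supp (ind S) = S := by
  ext i; simp [supp, ind]

theorem ind_supp (u : V) : ind (supp u) = u := by
  funext i
  by_cases h : u i = 0
  · simp [ind, supp, h]
  · have := (zmod2_ne_zero (u i)).1 h
    simp [ind, supp, this]

theorem supp_injective : Function.Injective supp := fun u v h => by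
  rw [← ind_supp u, ← ind_supp v, h]

theorem card_weight (k : ℕ) :
    (Finset.univ.filter fun u : V => hammingNorm u = k).card = Nat.choose 24 k := by
  have : (Finset.univ.filter fun u : V => hammingNorm u = k).card =
      (Finset.powersetCard k (Finset.univ : Finset (Fin 24))).card := by
    apply Finset.card_bij (fun u _ => supp u)
    · intro u hu
      simp only [mem_filter, mem_univ, true_and] at hu
      rw [Finset.mem_powersetCard]
      exact ⟨Finset.subset_univ _, hu⟩
    · intro u _ v _ h
      exact supp_injective h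
    · intro S hS
      rw [Finset.mem_powersetCard] at hS
      refine ⟨ind S, ?_, supp_ind S⟩
      simp only [mem_filter, mem_univ, true_and]
      rw [hammingNorm_eq, supp_ind]; exact hS.2
  rw [this, Finset.card_powersetCard]; simp

theorem supp_sub (u v : V) : supp (u - v) = (supp u \ supp v) ∪ (supp v \ supp u) := by
  ext i
  simp only [mem_supp, mem_union, mem_sdiff, Pi.sub_apply]
  exact zmod2_sub_ne_zero (u i) (v i)

theorem wt_sub (u v : V) :
    hammingNorm (u - v) + 2 * (supp u ∩ supp v).card = hammingNorm u + hammingNorm v := by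
  rw [hammingNorm_eq, hammingNorm_eq, hammingNorm_eq, supp_sub, Finset.card_union_of_disjoint]
  · have h1 := Finset.card_sdiff_add_card_inter (supp u) (supp v)
    have h2 := Finset.card_sdiff_add_card_inter (supp v) (supp u)
    rw [Finset.inter_comm] at h2
    omega
  · rw [Finset.disjoint_left]
    intro i hi hi'
    rw [mem_sdiff] at hi hi'
    exact hi.2 hi'.1

theorem sub_eq_add' (u v : V) : u - v = u + v := by
  funext i
  simp only [Pi.sub_apply, Pi.add_apply]
  generalize u i = a
  generalize v i = b
  revert a b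
  decide

theorem card_inter_cast (u v : V) : ((supp u ∩ supp v).card : ZMod 2) = ∑ i, u i * v i := by
  have : ∀ i, u i * v i = if i ∈ supp u ∩ supp v then 1 else 0 := by
    intro i
    simp only [mem_inter, mem_supp]
    generalize u i = a
    generalize v i = b
    revert a b
    decide
  simp only [this]
  rw [Finset.sum_ite_mem]
  simp

/-- abstract counting lemma behind the coset-leader theorem -/
theorem counting {X W : Type*} [Fintype X] [DecidableEq X] [DecidableEq W] (hX : Fintype.card X = 4096)
    (L3 L4 : Finset W) (π : W → X) (h3 : Set.InjOn π L3) (c3 : L3.card = 2325)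
    (h34 : ∀ a ∈ L3, ∀ b ∈ L4, π a ≠ π b) (h6 : ∀ c, (L4.filter fun a => π a = c).card ≤ 6)
    (c4 : L4.card = 10626) (c : X) :
    (∃ a ∈ L3, π a = c) ∨ (L4.filter fun a => π a = c).card = 6 := by
  by_contra hcon
  push Not at hcon
  obtain ⟨hc3, hc6⟩ := hcon
  set t : Finset X := Finset.univ \ L3.image π with ht
  have hct : c ∈ t := by
    rw [ht, mem_sdiff]
    refine ⟨mem_univ _, ?_⟩
    rw [mem_image]
    rintro ⟨a, ha, hac⟩
    exact hc3 a ha hac
  have hcard : t.card = 1771 := by
    rw [ht, Finset.card_sdiff_of_subset (Finset.subset_univ _), Finset.card_univ, hX,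
      Finset.card_image_of_injOn h3, c3]
  have hmaps : (L4 : Set W).MapsTo π t := by
    intro b hb
    rw [ht, Finset.coe_sdiff, Set.mem_sdiff]
    refine ⟨by simp, ?_⟩
    intro hmem
    rw [Finset.mem_coe, mem_image] at hmem
    obtain ⟨a, ha, hab⟩ := hmem
    exact h34 a ha b hb hab
  have hsum := Finset.card_eq_sum_card_fiberwise hmaps
  have hlt : ∑ b ∈ t, (L4.filter fun a => π a = b).card < ∑ _b ∈ t, 6 := by
    apply Finset.sum_lt_sum (fun i _ => h6 i)
    exact ⟨c, hct, lt_of_le_of_ne (h6 c) hc6⟩
  rw [Finset.sum_const, hcard, ← hsum, c4] at hlt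
  simp at hlt

/-- abstract Golay codes -/
structure IsAG (C : Submodule (ZMod 2) V) : Prop where
  dim : Module.finrank (ZMod 2) C = 12
  orth : ∀ v ∈ C, ∀ w ∈ C, ∑ i, v i * w i = 0
  minw : ∀ w ∈ C, w ≠ 0 → 8 ≤ hammingNorm w

variable {C : Submodule (ZMod 2) V}

theorem IsAG.card_quotient (h : IsAG C) : Nat.card (V ⧸ C) = 4096 := by
  have h1 := Submodule.card_eq_card_quotient_mul_card C
  have h2 : Nat.card C = 2 ^ 12 := by
    rw [Module.natCard_eq_pow_finrank (K := ZMod 2), h.dim]; simp
  have h3 : Nat.card V = 2 ^ 24 := by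
    simp [Nat.card_eq_fintype_card]
  rw [h2, h3] at h1
  omega

/-- two distinct words of the same coset -/
theorem IsAG.wt_ge (h : IsAG C) {u v : V} (huv : u - v ∈ C) (hne : u ≠ v) :
    8 + 2 * (supp u ∩ supp v).card ≤ hammingNorm u + hammingNorm v := by
  have := h.minw _ huv (sub_ne_zero.2 hne)
  have := wt_sub u v
  omega

theorem card_le_six (A : Finset V) (h4 : ∀ u ∈ A, hammingNorm u = 4)
    (hd : ∀ u ∈ A, ∀ v ∈ A, u ≠ v → Disjoint (supp u) (supp v)) : A.card ≤ 6 := by
  have h1 : (A.biUnion supp).card = ∑ u ∈ A, (supp u).card :=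
    Finset.card_biUnion hd
  have h2 : ∑ u ∈ A, (supp u).card = ∑ _u ∈ A, 4 := Finset.sum_congr rfl h4
  have h3 : (A.biUnion supp).card ≤ 24 := by
    simpa using Finset.card_le_univ (A.biUnion supp)
  rw [h1, h2, Finset.sum_const] at h3
  simp only [smul_eq_mul] at h3
  omega

theorem biUnion_eq_univ (A : Finset V) (h4 : ∀ u ∈ A, hammingNorm u = 4)
    (hd : ∀ u ∈ A, ∀ v ∈ A, u ≠ v → Disjoint (supp u) (supp v)) (h6 : A.card = 6) :
    A.biUnion supp = Finset.univ := by
  have h1 : (A.biUnion supp).card = ∑ u ∈ A, (supp u).card :=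
    Finset.card_biUnion hd
  have h2 : ∑ u ∈ A, (supp u).card = ∑ _u ∈ A, 4 := Finset.sum_congr rfl h4
  apply Finset.eq_univ_of_card
  rw [h1, h2, Finset.sum_const, h6]; simp

/-- words of weight `≤ 4` in the coset of `w` -/
noncomputable def leaders (C : Submodule (ZMod 2) V) (w : V) : Finset V := by
  classical exact Finset.univ.filter fun u => u - w ∈ C ∧ hammingNorm u ≤ 4

theorem mem_leaders {w u : V} : u ∈ leaders C w ↔ u - w ∈ C ∧ hammingNorm u ≤ 4 := by
  classical simp [leaders]

theorem IsAG.disjoint_of_four (h : IsAG C) {u v : V} (huv : u - v ∈ C) (hne : u ≠ v)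
    (hu : hammingNorm u ≤ 4) (hv : hammingNorm v ≤ 4) :
    hammingNorm u = 4 ∧ hammingNorm v = 4 ∧ Disjoint (supp u) (supp v) := by
  have := h.wt_ge huv hne
  refine ⟨by omega, by omega, ?_⟩
  rw [Finset.disjoint_iff_inter_eq_empty, ← Finset.card_eq_zero]
  omega

/-- The coset leader theorem. -/
theorem IsAG.leaders_cases (h : IsAG C) (w : V) :
    (∃ u, leaders C w = {u} ∧ hammingNorm u ≤ 3) ∨
    ((leaders C w).card = 6 ∧ ∀ u ∈ leaders C w, hammingNorm u = 4 ∧
      ∀ u' ∈ leaders C w, u ≠ u' → Disjoint (supp u) (supp u')) := by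
  classical
  have : Fintype (V ⧸ C) := Fintype.ofFinite _
  have hX : Fintype.card (V ⧸ C) = 4096 := by
    rw [← Nat.card_eq_fintype_card]; exact h.card_quotient
  set π : V → V ⧸ C := Submodule.Quotient.mk with hπ
  have hπeq : ∀ a b : V, π a = π b ↔ a - b ∈ C := fun a b => Submodule.Quotient.eq C
  set L3 : Finset V := Finset.univ.filter fun u => hammingNorm u ≤ 3 with hL3
  set L4 : Finset V := Finset.univ.filter fun u => hammingNorm u = 4 with hL4
  have c4 : L4.card = 10626 := by rw [hL4, card_weight]; decide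
  have c3 : L3.card = 2325 := by
    have : L3 = (Finset.univ.filter fun u : V => hammingNorm u = 0) ∪
        (Finset.univ.filter fun u : V => hammingNorm u = 1) ∪
        (Finset.univ.filter fun u : V => hammingNorm u = 2) ∪
        (Finset.univ.filter fun u : V => hammingNorm u = 3) := by
      ext u
      simp only [hL3, mem_filter, mem_univ, true_and, mem_union]
      omega
    rw [this, Finset.card_union_of_disjoint, Finset.card_union_of_disjoint,
      Finset.card_union_of_disjoint, card_weight, card_weight, card_weight, card_weight]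
    · decide
    all_goals
      rw [Finset.disjoint_left]
      intro u hu hu'
      simp only [mem_filter, mem_univ, true_and, mem_union] at hu hu'
      omega
  have h3 : Set.InjOn π L3 := by
    intro a ha b hb hab
    by_contra hne
    have ha' : hammingNorm a ≤ 3 := by simpa [hL3] using ha
    have hb' : hammingNorm b ≤ 3 := by simpa [hL3] using hb
    have := h.wt_ge ((hπeq a b).1 hab) hne
    omega
  have h34 : ∀ a ∈ L3, ∀ b ∈ L4, π a ≠ π b := by
    intro a ha b hb hab
    have ha' : hammingNorm a ≤ 3 := by simpa [hL3] using ha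
    have hb' : hammingNorm b = 4 := by simpa [hL4] using hb
    have hne : a ≠ b := by rintro rfl; omega
    have := h.wt_ge ((hπeq a b).1 hab) hne
    omega
  have hfib : ∀ c, ∀ u ∈ L4.filter (fun a => π a = c), ∀ v ∈ L4.filter (fun a => π a = c),
      u ≠ v → Disjoint (supp u) (supp v) := by
    intro c u hu v hv hne
    simp only [hL4, mem_filter, mem_univ, true_and] at hu hv
    exact (h.disjoint_of_four ((hπeq u v).1 (hu.2.trans hv.2.symm)) hne hu.1.le hv.1.le).2.2
  have h6 : ∀ c, (L4.filter fun a => π a = c).card ≤ 6 := by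
    intro c
    apply card_le_six _ _ (hfib c)
    intro u hu
    simp only [hL4, mem_filter, mem_univ, true_and] at hu
    exact hu.1
  rcases counting hX L3 L4 π h3 c3 h34 h6 c4 (π w) with ⟨u, hu, huw⟩ | hsix
  · left
    have hu' : hammingNorm u ≤ 3 := by simpa [hL3] using hu
    refine ⟨u, ?_, hu'⟩
    ext v
    rw [mem_leaders, mem_singleton]
    constructor
    · rintro ⟨hv, hv4⟩
      by_contra hne
      have h1 : v - u ∈ C := by
        have := C.sub_mem hv ((hπeq u w).1 huw)
        simpa using this
      have := h.wt_ge h1 hne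
      omega
    · rintro rfl
      exact ⟨(hπeq v w).1 huw, by omega⟩
  · right
    have hEq : leaders C w = L4.filter fun a => π a = π w := by
      ext v
      rw [mem_leaders]
      simp only [hL4, mem_filter, mem_univ, true_and, hπeq]
      constructor
      · rintro ⟨hv, hv4⟩
        refine ⟨?_, hv⟩
        -- some other element of the fibre
        have hpos : 1 < (L4.filter fun a => π a = π w).card := by rw [hsix]; norm_num
        obtain ⟨a, ha, b, hb, hab⟩ := Finset.one_lt_card.1 hpos
        simp only [hL4, mem_filter, mem_univ, true_and, hπeq] at ha hb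
        by_cases hva : v = a
        · rw [hva]; exact ha.1
        · have h1 : v - a ∈ C := by
            have := C.sub_mem hv ha.2
            simpa using this
          exact (h.disjoint_of_four h1 hva hv4 ha.1.le).1
      · rintro ⟨hv4, hv⟩
        exact ⟨hv, hv4.le⟩
    rw [hEq]
    refine ⟨hsix, fun u hu => ⟨?_, fun u' hu' hne => hfib _ u hu u' hu' hne⟩⟩
    simp only [hL4, mem_filter, mem_univ, true_and] at hu
    exact hu.1

theorem self_mem_leaders {u : V} (hu : hammingNorm u ≤ 4) : u ∈ leaders C u := by
  rw [mem_leaders]; exact ⟨by simp, hu⟩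

/-- every 5-set lies in the support of a weight-8 codeword -/
theorem IsAG.exists_octad (h : IsAG C) (s : Finset (Fin 24)) (hs : s.card = 5) :
    ∃ o ∈ C, hammingNorm o = 8 ∧ s ⊆ supp o := by
  obtain ⟨p, hp⟩ : s.Nonempty := by rw [← Finset.card_pos]; omega
  have ht : (s.erase p).card = 4 := by rw [Finset.card_erase_of_mem hp, hs]
  have hu4 : hammingNorm (ind (s.erase p)) = 4 := by rw [hammingNorm_eq, supp_ind, ht]
  have hmem : ind (s.erase p) ∈ leaders C (ind (s.erase p)) := self_mem_leaders hu4.le
  rcases h.leaders_cases (ind (s.erase p)) with ⟨u0, hu0, hu03⟩ | ⟨h6, hall⟩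
  · rw [hu0, mem_singleton] at hmem
    rw [← hmem] at hu03
    omega
  · have huniv := biUnion_eq_univ (leaders C (ind (s.erase p))) (fun u hu => (hall u hu).1)
      (fun u hu v hv hne => (hall u hu).2 v hv hne) h6
    have hpU : p ∈ (leaders C (ind (s.erase p))).biUnion supp := by rw [huniv]; exact mem_univ p
    rw [mem_biUnion] at hpU
    obtain ⟨u', hu', hpu'⟩ := hpU
    have hne : u' ≠ ind (s.erase p) := by
      rintro rfl
      rw [supp_ind] at hpu'
      exact Finset.notMem_erase p s hpu'
    have hdis := (hall u' hu').2 _ hmem hne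
    have hu'4 := (hall u' hu').1
    refine ⟨u' - ind (s.erase p), (mem_leaders.1 hu').1, ?_, ?_⟩
    · have := wt_sub u' (ind (s.erase p))
      rw [Finset.disjoint_iff_inter_eq_empty.1 hdis] at this
      simp only [card_empty, mul_zero, add_zero] at this
      omega
    · intro i hi
      rw [supp_sub, mem_union, mem_sdiff, mem_sdiff]
      by_cases hip : i = p
      · left
        rw [hip]
        refine ⟨hpu', ?_⟩
        rw [supp_ind]; exact Finset.notMem_erase p s
      · right
        have hi' : i ∈ supp (ind (s.erase p)) := by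
          rw [supp_ind]; exact Finset.mem_erase.2 ⟨hip, hi⟩
        exact ⟨hi', fun hc => (Finset.disjoint_left.1 hdis) hc hi'⟩

theorem IsAG.octad_unique (h : IsAG C) {o o' : V} (ho : o ∈ C) (ho' : o' ∈ C)
    (h8 : hammingNorm o = 8) (h8' : hammingNorm o' = 8) {s : Finset (Fin 24)} (hs : s.card = 5)
    (hso : s ⊆ supp o) (hso' : s ⊆ supp o') : o = o' := by
  by_contra hne
  have h1 := h.wt_ge (C.sub_mem ho ho') hne
  have h2 : s.card ≤ (supp o ∩ supp o').card := Finset.card_le_card (Finset.subset_inter hso hso')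
  omega

theorem IsAG.span_octads (h : IsAG C) :
    Submodule.span (ZMod 2) {w : V | w ∈ C ∧ hammingNorm w = 8} = C := by
  apply le_antisymm
  · rw [Submodule.span_le]
    intro w hw
    exact hw.1
  · intro c hc
    induction hn : hammingNorm c using Nat.strong_induction_on generalizing c with
    | _ n ih =>
    by_cases hc0 : c = 0
    · rw [hc0]; exact Submodule.zero_mem _
    have h8 := h.minw c hc hc0
    obtain ⟨s, hsc, hs5⟩ := Finset.exists_subset_card_eq (s := supp c) (n := 5)
      (by rw [← hammingNorm_eq]; omega)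
    obtain ⟨o, hoC, ho8, hso⟩ := h.exists_octad s hs5
    have h1 := wt_sub c o
    have h2 : s.card ≤ (supp c ∩ supp o).card := Finset.card_le_card (Finset.subset_inter hsc hso)
    have h3 := ih (hammingNorm (c - o)) (by omega) (C.sub_mem hc hoC) rfl
    have h4 : o ∈ Submodule.span (ZMod 2) {w : V | w ∈ C ∧ hammingNorm w = 8} :=
      Submodule.subset_span ⟨hoC, ho8⟩
    have := Submodule.add_mem _ h3 h4
    simpa using this

theorem IsAG.doubly_even (h : IsAG C) : ∀ w ∈ C, 4 ∣ hammingNorm w := by
  intro w hw
  rw [← h.span_octads] at hw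
  have : w ∈ C ∧ 4 ∣ hammingNorm w := by
    induction hw using Submodule.span_induction with
    | mem x hx => exact ⟨hx.1, by rw [hx.2]; norm_num⟩
    | zero => exact ⟨C.zero_mem, by simp⟩
    | add a b _ _ ha hb =>
      refine ⟨C.add_mem ha.1 hb.1, ?_⟩
      rw [← sub_eq_add']
      have h1 := wt_sub a b
      have h2 : ((supp a ∩ supp b).card : ZMod 2) = 0 := by
        rw [card_inter_cast]; exact h.orth a ha.1 b hb.1
      rw [ZMod.natCast_eq_zero_iff] at h2
      obtain ⟨k, hk⟩ := h2
      obtain ⟨m, hm⟩ := ha.2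
      obtain ⟨l, hl⟩ := hb.2
      omega
    | smul c a _ ha =>
      rcases (by decide : ∀ c : ZMod 2, c = 0 ∨ c = 1) c with rfl | rfl
      · simp
      · simpa using ha
  exact this.2

end Cfsg.Agent.Lib.Helper93.AG
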