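import Cfsg.Agent.Lib.Helper93.M24Orbits
import Cfsg.Agent.Lib.Helper26.Coatom

/-!
# Maximality of stabilisers in `M24` from suborbit lengths (wrapper around `Helper26.Coatom`)
-/

set_option autoImplicit false

namespace Cfsg.Agent.Lib.Helper93.Eng

open Cfsg Cfsg.Agent.Lib.Helper27 Cfsg.Agent.Lib.Helper92
open scoped Pointwise

variable {β : Type*} [MulAction (Equiv.Perm GolayPt) β]

theorem orbit_M24_eq {a : β} {𝓑 : Set β} (ha : a ∈ 𝓑) (closed : ∀ g ∈ M24, ∀ x ∈ 𝓑, g • x ∈ 𝓑)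
    (htr : ∀ y ∈ 𝓑, ∃ g ∈ M24, g • a = y) : MulAction.orbit ↥M24 a = 𝓑 := by
  ext y
  constructor
  · rintro ⟨g, rfl⟩
    exact closed g.1 g.2 a ha
  · intro hy
    obtain ⟨g, hg, h⟩ := htr y hy
    exact ⟨⟨g, hg⟩, h⟩

theorem OrbData.isCoatom {a : β} {𝓑 : Set β} {f : β → ℕ} (O : OrbData a 𝓑 f) (ha : a ∈ 𝓑)
    (htr : ∀ y ∈ 𝓑, ∃ g ∈ M24, g • a = y) (T : Finset ℕ) (N : ℕ → ℕ)
    (hT : ∀ y ∈ 𝓑, f y ∈ T) (hN : ∀ i ∈ T, {y | y ∈ 𝓑 ∧ f y = i}.ncard = N i)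
    (hpos : ∀ i ∈ T, 0 < N i) (i₀ : ℕ) (hi₀ : f a = i₀) (hne : T ≠ {i₀})
    (harith : ∀ I ∈ T.powerset, i₀ ∈ I → (∑ i ∈ I, N i) ∣ (∑ i ∈ T, N i) → I = {i₀} ∨ I = T) :
    IsCoatom (MulAction.stabilizer M24 a) := by
  have ho := orbit_M24_eq ha O.closed htr
  apply Cfsg.Agent.Lib.Helper26.isCoatom_of_suborbits a (MulAction.stabilizer M24 a) le_rfl f T N
  · intro y hy; rw [ho] at hy; exact hT y hy
  · intro i hi; rw [ho]; exact hN i hi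
  · intro y hy z hz hyz
    rw [ho] at hy hz
    obtain ⟨g, hg, h1, h2⟩ := O.tr y hy z hz hyz
    exact ⟨⟨g, hg⟩, h1, h2⟩
  · intro h hh
    rw [MulAction.mem_stabilizer_iff.1 hh]
  · exact hpos
  · exact hi₀
  · exact hne
  · exact harith

theorem fibre_eq_singleton {𝓑 : Set β} {f : β → ℕ} {a : β} (ha : a ∈ 𝓑) {k : ℕ} (hk : f a = k)
    (c : {y | y ∈ 𝓑 ∧ f y = k}.ncard = 1) : {y | y ∈ 𝓑 ∧ f y = k} = {a} := by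
  obtain ⟨b, hb⟩ := Set.ncard_eq_one.1 c
  have : a ∈ {y | y ∈ 𝓑 ∧ f y = k} := ⟨ha, hk⟩
  rw [hb] at this ⊢
  rw [Set.mem_singleton_iff.1 this]

theorem OrbData.orbits3' {a : β} {𝓑 : Set β} {f : β → ℕ} (O : OrbData a 𝓑 f) (ha : a ∈ 𝓑)
    {k0 k1 k2 k3 n1 n2 n3 : ℕ} (hk : f a = k0)
    (c0 : {y | y ∈ 𝓑 ∧ f y = k0}.ncard = 1)
    (c1 : {y | y ∈ 𝓑 ∧ f y = k1}.ncard = n1) (c2 : {y | y ∈ 𝓑 ∧ f y = k2}.ncard = n2)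
    (c3 : {y | y ∈ 𝓑 ∧ f y = k3}.ncard = n3) (p1 : 0 < n1) (p2 : 0 < n2) (p3 : 0 < n3)
    (hv : ∀ y ∈ 𝓑, f y = k0 ∨ f y = k1 ∨ f y = k2 ∨ f y = k3) :
    ∃ X₁ ∈ 𝓑, ∃ X₂ ∈ 𝓑, ∃ X₃ ∈ 𝓑,
      (MulAction.orbit ↥(MulAction.stabilizer M24 a) X₁).ncard = n1 ∧
      (MulAction.orbit ↥(MulAction.stabilizer M24 a) X₂).ncard = n2 ∧
      (MulAction.orbit ↥(MulAction.stabilizer M24 a) X₃).ncard = n3 ∧
      𝓑 = {a} ∪ MulAction.orbit ↥(MulAction.stabilizer M24 a) X₁ ∪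
        MulAction.orbit ↥(MulAction.stabilizer M24 a) X₂ ∪
        MulAction.orbit ↥(MulAction.stabilizer M24 a) X₃ := by
  obtain ⟨X₁, h1, e1⟩ := O.exists_rep c1 p1
  obtain ⟨X₂, h2, e2⟩ := O.exists_rep c2 p2
  obtain ⟨X₃, h3, e3⟩ := O.exists_rep c3 p3
  refine ⟨X₁, h1, X₂, h2, X₃, h3, by rw [e1, c1], by rw [e2, c2], by rw [e3, c3], ?_⟩
  rw [e1, e2, e3, ← fibre_eq_singleton ha hk c0]
  ext y
  simp only [Set.mem_union, Set.mem_ofPred_eq]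
  constructor
  · intro hy
    rcases hv y hy with h | h | h | h
    · exact Or.inl (Or.inl (Or.inl ⟨hy, h⟩))
    · exact Or.inl (Or.inl (Or.inr ⟨hy, h⟩))
    · exact Or.inl (Or.inr ⟨hy, h⟩)
    · exact Or.inr ⟨hy, h⟩
  · rintro (((h | h) | h) | h) <;> exact h.1

theorem OrbData.orbits4' {a : β} {𝓑 : Set β} {f : β → ℕ} (O : OrbData a 𝓑 f) (ha : a ∈ 𝓑)
    {k0 k1 k2 k3 k4 n1 n2 n3 n4 : ℕ} (hk : f a = k0)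
    (c0 : {y | y ∈ 𝓑 ∧ f y = k0}.ncard = 1)
    (c1 : {y | y ∈ 𝓑 ∧ f y = k1}.ncard = n1) (c2 : {y | y ∈ 𝓑 ∧ f y = k2}.ncard = n2)
    (c3 : {y | y ∈ 𝓑 ∧ f y = k3}.ncard = n3) (c4 : {y | y ∈ 𝓑 ∧ f y = k4}.ncard = n4)
    (p1 : 0 < n1) (p2 : 0 < n2) (p3 : 0 < n3) (p4 : 0 < n4)
    (hv : ∀ y ∈ 𝓑, f y = k0 ∨ f y = k1 ∨ f y = k2 ∨ f y = k3 ∨ f y = k4) :
    ∃ X₁ ∈ 𝓑, ∃ X₂ ∈ 𝓑, ∃ X₃ ∈ 𝓑, ∃ X₄ ∈ 𝓑,
      (MulAction.orbit ↥(MulAction.stabilizer M24 a) X₁).ncard = n1 ∧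
      (MulAction.orbit ↥(MulAction.stabilizer M24 a) X₂).ncard = n2 ∧
      (MulAction.orbit ↥(MulAction.stabilizer M24 a) X₃).ncard = n3 ∧
      (MulAction.orbit ↥(MulAction.stabilizer M24 a) X₄).ncard = n4 ∧
      𝓑 = {a} ∪ MulAction.orbit ↥(MulAction.stabilizer M24 a) X₁ ∪
        MulAction.orbit ↥(MulAction.stabilizer M24 a) X₂ ∪
        MulAction.orbit ↥(MulAction.stabilizer M24 a) X₃ ∪
        MulAction.orbit ↥(MulAction.stabilizer M24 a) X₄ := by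
  obtain ⟨X₁, h1, e1⟩ := O.exists_rep c1 p1
  obtain ⟨X₂, h2, e2⟩ := O.exists_rep c2 p2
  obtain ⟨X₃, h3, e3⟩ := O.exists_rep c3 p3
  obtain ⟨X₄, h4, e4⟩ := O.exists_rep c4 p4
  refine ⟨X₁, h1, X₂, h2, X₃, h3, X₄, h4, by rw [e1, c1], by rw [e2, c2], by rw [e3, c3],
    by rw [e4, c4], ?_⟩
  rw [e1, e2, e3, e4, ← fibre_eq_singleton ha hk c0]
  ext y
  simp only [Set.mem_union, Set.mem_ofPred_eq]
  constructor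
  · intro hy
    rcases hv y hy with h | h | h | h | h
    · exact Or.inl (Or.inl (Or.inl (Or.inl ⟨hy, h⟩)))
    · exact Or.inl (Or.inl (Or.inl (Or.inr ⟨hy, h⟩)))
    · exact Or.inl (Or.inl (Or.inr ⟨hy, h⟩))
    · exact Or.inl (Or.inr ⟨hy, h⟩)
    · exact Or.inr ⟨hy, h⟩
  · rintro ((((h | h) | h) | h) | h) <;> exact h.1

end Cfsg.Agent.Lib.Helper93.Eng
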