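import Cfsg.Agent.Lib.Helper27.Trans
import Cfsg.Agent.Lib.Helper92.GolayCount

/-!
# Orbit engine for `M24` acting on families of subsets of the 24 points

Objects are finsets of finsets of points, coded by a key: `decK r key` is the family of the `r`
sets whose masks are the 24-bit fields of `key`.  Single sets are families with one member.

* `inclK r c key key'` : Boolean test for `permOf c • decK r key ⊆ decK r key'`
* `wI w S T = ∑ s ∈ S, ∑ t ∈ T, w |s ∩ t|` : invariant of a pair of families, `wIc` its computation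
* `IsEnum 𝓧 r N tab valid` : the family `𝓧` is enumerated without repetition by the valid `i < N`
* `engine` : a parent-pointer table (Schreier forest) checked by the kernel shows that two members
  of `𝓧` with the same invariant w.r.t. the base family `A` are conjugate under the stabiliser
  of `A` in `M24`
* `count` : cardinalities of the fibres of the invariant
* `orbit_eq_fibre`, `orbits3`, `orbits4` : translation to `MulAction.orbit (stabilizer M24 a)`.
-/

set_option autoImplicit false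

namespace Cfsg.Agent.Lib.Helper93.Eng

open Cfsg Cfsg.Agent.Lib.Helper27 Cfsg.Agent.Lib.Helper92
open scoped Pointwise

/-! ### kernel friendly loops -/

/-- lazy `or`. -/
def bor (x y : Bool) : Bool := Bool.rec y true x

@[simp] theorem bor_eq (x y : Bool) : bor x y = (x || y) := by cases x <;> rfl

/-- lazy negation. -/
def bnot (x : Bool) : Bool := Bool.rec true false x

@[simp] theorem bnot_eq (x : Bool) : bnot x = !x := by cases x <;> rfl

/-- `∃ k < n, f k`. -/
def anyBelow (f : ℕ → Bool) (n : ℕ) : Bool := Nat.rec false (fun k ih => bor (f k) ih) n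

theorem anyBelow_succ (f : ℕ → Bool) (n : ℕ) : anyBelow f (n + 1) = (f n || anyBelow f n) := by
  show bor (f n) (anyBelow f n) = _
  rw [bor_eq]

theorem anyBelow_iff (f : ℕ → Bool) (n : ℕ) : anyBelow f n = true ↔ ∃ k < n, f k = true := by
  induction n with
  | zero => simp [anyBelow]
  | succ n ih =>
    rw [anyBelow_succ, Bool.or_eq_true, ih]
    constructor
    · rintro (h | ⟨k, hk, h⟩)
      · exact ⟨n, by omega, h⟩
      · exact ⟨k, by omega, h⟩
    · rintro ⟨k, hk, h⟩
      rcases Nat.lt_succ_iff_lt_or_eq.1 hk with h1 | h1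
      · exact Or.inr ⟨k, h1, h⟩
      · subst h1; exact Or.inl h

/-- `∑ k < n, f k`. -/
def sumBelow (f : ℕ → ℕ) (n : ℕ) : ℕ := Nat.rec 0 (fun k ih => Nat.add ih (f k)) n

theorem sumBelow_eq (f : ℕ → ℕ) (n : ℕ) : sumBelow f n = ∑ k ∈ Finset.range n, f k := by
  induction n with
  | zero => rfl
  | succ n ih =>
    rw [Finset.sum_range_succ, ← ih]; rfl

/-- `n`-fold iteration. -/
def iter (f : ℕ → ℕ) (n i : ℕ) : ℕ := Nat.rec i (fun _ x => f x) n

theorem iter_succ (f : ℕ → ℕ) (n i : ℕ) : iter f (n + 1) i = f (iter f n i) := rfl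

/-! ### keys -/

/-- the `j`-th 24-bit field of a key. -/
def fld (key j : ℕ) : ℕ := Nat.land (Nat.shiftRight key (Nat.mul 24 j)) 16777215

theorem fld_lt (key j : ℕ) : fld key j < 2 ^ 24 :=
  lt_of_le_of_lt (Nat.and_le_right (n := Nat.shiftRight key (Nat.mul 24 j))) (by norm_num)

/-- the family of sets coded by a key. -/
def decK (r key : ℕ) : Finset (Finset GolayPt) :=
  (Finset.range r).image (fun j => unmask (fld key j))

theorem mem_decK {r key : ℕ} {t : Finset GolayPt} :
    t ∈ decK r key ↔ ∃ j < r, unmask (fld key j) = t := by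
  simp [decK]

theorem fld_zero_of_lt {m : ℕ} (hm : m < 2 ^ 24) : fld m 0 = m := by
  show (m >>> (24 * 0)) &&& 16777215 = m
  rw [Nat.mul_zero, Nat.shiftRight_zero, show (16777215 : ℕ) = 2 ^ 24 - 1 from rfl,
    Nat.and_two_pow_sub_one_eq_mod, Nat.mod_eq_of_lt hm]

theorem decK_one {m : ℕ} (hm : m < 2 ^ 24) : decK 1 m = {unmask m} := by
  simp [decK, fld_zero_of_lt hm]

/-- is the mask `m` one of the fields? -/
def memK (r key m : ℕ) : Bool := anyBelow (fun l => Nat.beq (fld key l) m) r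

theorem memK_iff {r key m : ℕ} (hm : m < 2 ^ 24) :
    memK r key m = true ↔ unmask m ∈ decK r key := by
  unfold memK
  rw [anyBelow_iff, mem_decK]
  constructor
  · rintro ⟨l, hl, h⟩
    exact ⟨l, hl, by rw [Nat.eq_of_beq_eq_true h]⟩
  · rintro ⟨l, hl, h⟩
    exact ⟨l, hl, by rw [Nat.beq_eq]; exact unmask_injOn (fld_lt _ _) hm h⟩

/-- Boolean test for `permOf c • decK r key ⊆ decK r' key'`. -/
def inclK (r c key r' key' : ℕ) : Bool :=
  allBelow (fun j => memK r' key' (permMask c (fld key j))) r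

theorem inclK_iff {r c key r' key' : ℕ} (hc : validCode c = true) :
    inclK r c key r' key' = true ↔ permOf c • decK r key ⊆ decK r' key' := by
  unfold inclK
  rw [allBelow_iff]
  constructor
  · intro h t ht
    obtain ⟨s, hs, rfl⟩ := Finset.mem_smul_finset.1 ht
    obtain ⟨j, hj, rfl⟩ := mem_decK.1 hs
    rw [smul_unmask_permOf hc (fld_lt _ _)]
    exact (memK_iff (permMask_lt hc (fld_lt _ _))).1 (h j hj)
  · intro h j hj
    rw [memK_iff (permMask_lt hc (fld_lt _ _)), ← smul_unmask_permOf hc (fld_lt _ _)]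
    exact h (Finset.smul_mem_smul_finset (mem_decK.2 ⟨j, hj, rfl⟩))

theorem inclK_iff_eq {r c key r' key' : ℕ} (hc : validCode c = true)
    (hcard : (decK r' key').card ≤ (decK r key).card) :
    inclK r c key r' key' = true ↔ permOf c • decK r key = decK r' key' := by
  rw [inclK_iff hc]
  constructor
  · intro h
    exact Finset.eq_of_subset_of_card_le h (by rw [Finset.card_smul_finset]; exact hcard)
  · intro h; rw [h]

/-! ### the invariant -/

/-- `∑ s ∈ S, ∑ t ∈ T, w |s ∩ t|`. -/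
def wI (w : ℕ → ℕ) (S T : Finset (Finset GolayPt)) : ℕ := ∑ s ∈ S, ∑ t ∈ T, w (s ∩ t).card

theorem wI_smul (w : ℕ → ℕ) (g : Equiv.Perm GolayPt) (S T : Finset (Finset GolayPt)) :
    wI w (g • S) (g • T) = wI w S T := by
  unfold wI
  rw [Finset.smul_finset_def, Finset.sum_image (fun a _ b _ h => MulAction.injective g h)]
  apply Finset.sum_congr rfl
  intro s _
  rw [Finset.smul_finset_def, Finset.sum_image (fun a _ b _ h => MulAction.injective g h)]
  apply Finset.sum_congr rfl
  intro t _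
  rw [← Finset.smul_finset_inter, Finset.card_smul_finset]

/-- table driven weight function: 8 bits per entry. -/
def wT (W n : ℕ) : ℕ := Nat.land (Nat.shiftRight W (Nat.mul 8 n)) 255

/-- computation of the invariant on keys. -/
def wIc (w : ℕ → ℕ) (r key r' key' : ℕ) : ℕ :=
  sumBelow (fun j => sumBelow (fun l => w (pc (Nat.land (fld key j) (fld key' l)))) r') r

theorem injOn_of_card {r key : ℕ} (h : (decK r key).card = r) :
    Set.InjOn (fun j => unmask (fld key j)) (Finset.range r : Set ℕ) := by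
  apply Finset.card_image_iff.1
  rw [Finset.card_range]; exact h

theorem wI_decK (w : ℕ → ℕ) {r key r' key' : ℕ} (h : (decK r key).card = r)
    (h' : (decK r' key').card = r') :
    wI w (decK r key) (decK r' key') = wIc w r key r' key' := by
  unfold wI wIc
  rw [sumBelow_eq, decK, Finset.sum_image (injOn_of_card h)]
  apply Finset.sum_congr rfl
  intro j _
  rw [sumBelow_eq, decK, Finset.sum_image (injOn_of_card h')]
  apply Finset.sum_congr rfl
  intro l _
  rw [card_eq_pc, mask_inter, mask_unmask (fld_lt _ _), mask_unmask (fld_lt _ _)]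
  rfl

/-! ### enumerations -/

/-- the valid indices `i < N` enumerate the family `𝓧` without repetition. -/
structure IsEnum (𝓧 : Set (Finset (Finset GolayPt))) (r N : ℕ) (tab : ℕ → ℕ) (valid : ℕ → Bool) :
    Prop where
  card_eq : ∀ i < N, valid i = true → (decK r (tab i)).card = r
  mem : ∀ i < N, valid i = true → decK r (tab i) ∈ 𝓧
  surj : ∀ x ∈ 𝓧, ∃ i < N, valid i = true ∧ x = decK r (tab i)
  inj : ∀ i < N, ∀ j < N, valid i = true → valid j = true →
    decK r (tab i) = decK r (tab j) → i = j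

theorem IsEnum.ncard {𝓧 : Set (Finset (Finset GolayPt))} {r N : ℕ} {tab : ℕ → ℕ} {valid : ℕ → Bool}
    (E : IsEnum 𝓧 r N tab valid) (P : Finset (Finset GolayPt) → Prop) (p : ℕ → Bool)
    (hp : ∀ i < N, valid i = true → (p i = true ↔ P (decK r (tab i)))) :
    {x | x ∈ 𝓧 ∧ P x}.ncard = countBelow (fun i => band (valid i) (p i)) N := by
  have e : {x | x ∈ 𝓧 ∧ P x} =
      ↑(((Finset.range N).filter (fun i => band (valid i) (p i) = true)).image
        (fun i => decK r (tab i))) := by
    ext x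
    simp only [Set.mem_ofPred_eq, Finset.coe_image, Set.mem_image, Finset.mem_coe,
      Finset.mem_filter, Finset.mem_range, band_eq, Bool.and_eq_true]
    constructor
    · rintro ⟨hx, hP⟩
      obtain ⟨i, hi, hv, rfl⟩ := E.surj x hx
      exact ⟨i, ⟨hi, hv, (hp i hi hv).2 hP⟩, rfl⟩
    · rintro ⟨i, ⟨hi, hv, hpi⟩, rfl⟩
      exact ⟨E.mem i hi hv, (hp i hi hv).1 hpi⟩
  rw [e, Set.ncard_coe_finset, countBelow_eq, Finset.card_image_of_injOn]
  intro a ha b hb h
  simp only [Finset.coe_filter, Finset.mem_range, Set.mem_ofPred_eq, band_eq,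
    Bool.and_eq_true] at ha hb
  exact E.inj a ha.1 b hb.1 ha.2.1 hb.2.1 h

/-! ### Schreier forests -/

/-- the test for one node of the forest. -/
def edgeOK (r N : ℕ) (tab : ℕ → ℕ) (valid : ℕ → Bool) (gen : ℕ → ℕ) (ng : ℕ) (par gi : ℕ → ℕ)
    (i : ℕ) : Bool :=
  bor (bnot (valid i)) (band (Nat.blt (par i) N) (band (valid (par i))
    (bor (Nat.beq (par i) i)
      (band (Nat.blt (gi i) ng) (inclK r (gen (gi i)) (tab (par i)) r (tab i))))))

theorem forest_sound (H : Subgroup (Equiv.Perm GolayPt)) {r N : ℕ} {tab : ℕ → ℕ} {valid : ℕ → Bool}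
    (hcard : ∀ i < N, valid i = true → (decK r (tab i)).card = r)
    (gen : ℕ → ℕ) (ng : ℕ) (hgen : ∀ k < ng, validCode (gen k) = true ∧ permOf (gen k) ∈ H)
    (par gi : ℕ → ℕ)
    (hedge : allBelow (edgeOK r N tab valid gen ng par gi) N = true) (D : ℕ) :
    ∀ i < N, valid i = true → iter par D i < N ∧ valid (iter par D i) = true ∧
      ∃ h ∈ H, h • decK r (tab (iter par D i)) = decK r (tab i) := by
  rw [allBelow_iff] at hedge
  induction D with
  | zero => intro i hi hv; exact ⟨hi, hv, 1, H.one_mem, one_smul _ _⟩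
  | succ D ih =>
    intro i hi hv
    obtain ⟨hj, hvj, h, hh, he⟩ := ih i hi hv
    rw [iter_succ]
    set j := iter par D i with hjdef
    have h1 := hedge j hj
    unfold edgeOK at h1
    simp only [bor_eq, band_eq, bnot_eq, Bool.or_eq_true, Bool.and_eq_true, Bool.not_eq_true',
      Nat.blt_eq, Nat.beq_eq] at h1
    rcases h1 with h1 | ⟨h2, h3, h4⟩
    · rw [hvj] at h1; exact absurd h1 (by simp)
    · refine ⟨h2, h3, ?_⟩
      rcases h4 with h4 | ⟨h5, h6⟩
      · rw [h4]; exact ⟨h, hh, he⟩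
      · obtain ⟨hv1, hH⟩ := hgen _ h5
        rw [inclK_iff_eq hv1 (by rw [hcard _ h2 h3, hcard _ hj hvj])] at h6
        exact ⟨h * permOf (gen (gi j)), H.mul_mem hh hH, by rw [mul_smul, h6, he]⟩

/-- the stabiliser of a family in `M24`. -/
def stab (A : Finset (Finset GolayPt)) : Subgroup (Equiv.Perm GolayPt) :=
  M24 ⊓ MulAction.stabilizer (Equiv.Perm GolayPt) A

theorem mem_stab {A : Finset (Finset GolayPt)} {g : Equiv.Perm GolayPt} :
    g ∈ stab A ↔ g ∈ M24 ∧ g • A = A := by
  unfold stab; rw [Subgroup.mem_inf]; exact Iff.rfl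

/-- **The engine.**  A forest certificate shows that members of `𝓧` with the same invariant are
conjugate under the stabiliser of the base family; stated for all `M24`-translates of the base. -/
theorem engine {𝓧 : Set (Finset (Finset GolayPt))} {r N : ℕ} {tab : ℕ → ℕ} {valid : ℕ → Bool}
    (E : IsEnum 𝓧 r N tab valid) (h𝓧 : ∀ g ∈ M24, ∀ x ∈ 𝓧, g • x ∈ 𝓧)
    (rA keyA : ℕ) (hA : (decK rA keyA).card = rA) (w : ℕ → ℕ)
    (gen : ℕ → ℕ) (ng : ℕ)
    (hgen : allBelow (fun k => band (checkM24 (gen k)) (inclK rA (gen k) keyA rA keyA)) ng = true)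
    (par gi : ℕ → ℕ) (D : ℕ) (rootFor : ℕ → ℕ)
    (hedge : allBelow (edgeOK r N tab valid gen ng par gi) N = true)
    (hroot : allBelow (fun i => bor (bnot (valid i))
      (Nat.beq (iter par D i) (rootFor (wIc w rA keyA r (tab i))))) N = true)
    (k : Equiv.Perm GolayPt) (hk : k ∈ M24) :
    ∀ x ∈ 𝓧, ∀ y ∈ 𝓧, wI w (k • decK rA keyA) x = wI w (k • decK rA keyA) y →
      ∃ g ∈ M24, g • (k • decK rA keyA) = k • decK rA keyA ∧ g • x = y := by
  set A := decK rA keyA with hAdef
  have hgen' : ∀ j < ng, validCode (gen j) = true ∧ permOf (gen j) ∈ stab A := by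
    intro j hj
    have := (allBelow_iff _ _).1 hgen j hj
    rw [band_eq, Bool.and_eq_true] at this
    have hv := valid_of_check this.1
    exact ⟨hv, mem_stab.2 ⟨permOf_mem_M24 this.1, (inclK_iff_eq hv le_rfl).1 this.2⟩⟩
  have F := forest_sound (stab A) E.card_eq gen ng hgen' par gi hedge D
  rw [allBelow_iff] at hroot
  -- the standard base
  have key : ∀ x ∈ 𝓧, ∀ y ∈ 𝓧, wI w A x = wI w A y → ∃ g ∈ M24, g • A = A ∧ g • x = y := by
    intro x hx y hy hxy
    obtain ⟨i, hi, hvi, rfl⟩ := E.surj x hx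
    obtain ⟨j, hj, hvj, rfl⟩ := E.surj y hy
    rw [wI_decK w hA (E.card_eq i hi hvi), wI_decK w hA (E.card_eq j hj hvj)] at hxy
    have h1 := hroot i hi
    have h2 := hroot j hj
    simp only [bor_eq, bnot_eq, Bool.or_eq_true, Bool.not_eq_true', Nat.beq_eq, hvi, hvj] at h1 h2
    have h1' : iter par D i = rootFor (wIc w rA keyA r (tab i)) := by simpa using h1
    have h2' : iter par D j = rootFor (wIc w rA keyA r (tab j)) := by simpa using h2
    obtain ⟨_, _, a, ha, hae⟩ := F i hi hvi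
    obtain ⟨_, _, b, hb, hbe⟩ := F j hj hvj
    rw [h1', hxy] at hae
    rw [h2'] at hbe
    have hm := (stab A).mul_mem hb ((stab A).inv_mem ha)
    refine ⟨b * a⁻¹, (mem_stab.1 hm).1, (mem_stab.1 hm).2, ?_⟩
    rw [mul_smul, ← hae, inv_smul_smul, hbe]
  intro x hx y hy hxy
  have hk' := M24.inv_mem hk
  have e : ∀ z, wI w (k • A) z = wI w A (k⁻¹ • z) := by
    intro z
    conv_lhs => rw [← smul_inv_smul k z]
    rw [wI_smul]
  rw [e x, e y] at hxy
  obtain ⟨g, hg, hgA, hgx⟩ := key _ (h𝓧 _ hk' x hx) _ (h𝓧 _ hk' y hy) hxy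
  refine ⟨k * g * k⁻¹, M24.mul_mem (M24.mul_mem hk hg) hk', ?_, ?_⟩
  · rw [mul_smul, mul_smul, inv_smul_smul, hgA]
  · rw [mul_smul, mul_smul, hgx, smul_inv_smul]

/-- cardinalities of the fibres of the invariant, for all translates of the base. -/
theorem count {𝓧 : Set (Finset (Finset GolayPt))} {r N : ℕ} {tab : ℕ → ℕ} {valid : ℕ → Bool}
    (E : IsEnum 𝓧 r N tab valid) (h𝓧 : ∀ g ∈ M24, ∀ x ∈ 𝓧, g • x ∈ 𝓧)
    (rA keyA : ℕ) (hA : (decK rA keyA).card = rA) (w : ℕ → ℕ) (l : ℕ)
    (k : Equiv.Perm GolayPt) (hk : k ∈ M24) :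
    {x | x ∈ 𝓧 ∧ wI w (k • decK rA keyA) x = l}.ncard =
      countBelow (fun i => band (valid i) (Nat.beq (wIc w rA keyA r (tab i)) l)) N := by
  rw [← E.ncard (fun x => wI w (decK rA keyA) x = l)
    (fun i => Nat.beq (wIc w rA keyA r (tab i)) l)
    (fun i hi hv => by rw [Nat.beq_eq, wI_decK w hA (E.card_eq i hi hv)])]
  have hk' := M24.inv_mem hk
  have e : {x | x ∈ 𝓧 ∧ wI w (k • decK rA keyA) x = l} =
      (fun x => k • x) '' {x | x ∈ 𝓧 ∧ wI w (decK rA keyA) x = l} := by
    ext x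
    simp only [Set.mem_ofPred_eq, Set.mem_image]
    constructor
    · rintro ⟨hx, h⟩
      refine ⟨k⁻¹ • x, ⟨h𝓧 _ hk' x hx, ?_⟩, smul_inv_smul k x⟩
      rw [← h]
      conv_rhs => rw [← smul_inv_smul k x]
      rw [wI_smul]
    · rintro ⟨y, ⟨hy, h⟩, rfl⟩
      exact ⟨h𝓧 _ hk y hy, by rw [wI_smul]; exact h⟩
  rw [e, Set.ncard_image_of_injective _ (MulAction.injective k)]

/-- the values of the invariant, for all translates of the base. -/
theorem values {𝓧 : Set (Finset (Finset GolayPt))} {r N : ℕ} {tab : ℕ → ℕ} {valid : ℕ → Bool}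
    (E : IsEnum 𝓧 r N tab valid) (h𝓧 : ∀ g ∈ M24, ∀ x ∈ 𝓧, g • x ∈ 𝓧)
    (rA keyA : ℕ) (hA : (decK rA keyA).card = rA) (w : ℕ → ℕ) (ok : ℕ → Bool)
    (h : allBelow (fun i => bor (bnot (valid i)) (ok (wIc w rA keyA r (tab i)))) N = true)
    (k : Equiv.Perm GolayPt) (hk : k ∈ M24) :
    ∀ x ∈ 𝓧, ok (wI w (k • decK rA keyA) x) = true := by
  intro x hx
  have hk' := M24.inv_mem hk
  have e : wI w (k • decK rA keyA) x = wI w (decK rA keyA) (k⁻¹ • x) := by
    conv_lhs => rw [← smul_inv_smul k x]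
    rw [wI_smul]
  rw [e]
  obtain ⟨i, hi, hv, hx'⟩ := E.surj _ (h𝓧 _ hk' x hx)
  rw [hx', wI_decK w hA (E.card_eq i hi hv)]
  have := (allBelow_iff _ _).1 h i hi
  simpa [hv] using this

end Cfsg.Agent.Lib.Helper93.Eng
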