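import Cfsg.Agent.Lib.Helper93.M24Orbits

/-!
# Counting the members of a family fixed by an element of `M24`
-/

set_option autoImplicit false

namespace Cfsg.Agent.Lib.Helper93.Eng

open Cfsg Cfsg.Agent.Lib.Helper27 Cfsg.Agent.Lib.Helper92
open scoped Pointwise

variable {β : Type*} [MulAction (Equiv.Perm GolayPt) β]

theorem ncard_fixed_conj (𝓑 : Set β) (closed : ∀ g ∈ M24, ∀ x ∈ 𝓑, g • x ∈ 𝓑)
    {k g h : Equiv.Perm GolayPt} (hk : k ∈ M24) (e : k * g * k⁻¹ = h) :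
    {x | x ∈ 𝓑 ∧ g • x = x}.ncard = {x | x ∈ 𝓑 ∧ h • x = x}.ncard := by
  have hs : {x | x ∈ 𝓑 ∧ h • x = x} = (fun x => k • x) '' {x | x ∈ 𝓑 ∧ g • x = x} := by
    ext x
    constructor
    · rintro ⟨hx, hf⟩
      refine ⟨k⁻¹ • x, ⟨closed _ (M24.inv_mem hk) x hx, ?_⟩, smul_inv_smul k x⟩
      rw [← e, mul_smul, mul_smul] at hf
      rw [eq_inv_smul_iff]; exact hf
    · rintro ⟨y, ⟨hy, hf⟩, rfl⟩
      refine ⟨closed _ hk y hy, ?_⟩
      show h • k • y = k • y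
      rw [← e, mul_smul, mul_smul, inv_smul_smul, hf]
  rw [hs, Set.ncard_image_of_injective _ (MulAction.injective k)]

theorem ncard_fixed_code {ιb : β → FF} (hb : Emb ιb) {𝓑 : Set β} {r N : ℕ} {tab : ℕ → ℕ}
    {valid : ℕ → Bool} (E : IsEnum (ιb '' 𝓑) r N tab valid) {c : ℕ} (hc : validCode c = true) :
    {x | x ∈ 𝓑 ∧ permOf c • x = x}.ncard =
      countBelow (fun i => band (valid i) (inclK r c (tab i) r (tab i))) N := by
  rw [← E.ncard (fun X => permOf c • X = X) (fun i => inclK r c (tab i) r (tab i))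
    (fun i _ _ => inclK_iff_eq hc le_rfl), ← ncard_emb hb 𝓑 (fun X => permOf c • X = X)]
  congr 1
  ext x
  simp only [Set.mem_ofPred_eq]
  rw [← hb.eqv, hb.inj.eq_iff]

end Cfsg.Agent.Lib.Helper93.Eng
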