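import Cfsg.Agent.Lib.Helper93.M24Engine

/-!
# From the orbit engine to statements about `MulAction.orbit (MulAction.stabilizer M24 a)`
-/

set_option autoImplicit false

namespace Cfsg.Agent.Lib.Helper93.Eng

open Cfsg Cfsg.Agent.Lib.Helper27 Cfsg.Agent.Lib.Helper92
open scoped Pointwise

/-- families of sets of points. -/
abbrev FF : Type := Finset (Finset GolayPt)

variable {α β : Type*} [MulAction (Equiv.Perm GolayPt) α] [MulAction (Equiv.Perm GolayPt) β]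

theorem orbit_stab_eq (a : α) (x : β) :
    MulAction.orbit ↥(MulAction.stabilizer M24 a) x = {y | ∃ g ∈ M24, g • a = a ∧ g • x = y} := by
  ext y
  constructor
  · rintro ⟨⟨⟨g, hg⟩, hga⟩, rfl⟩
    exact ⟨g, hg, hga, rfl⟩
  · rintro ⟨g, hg, hga, rfl⟩
    exact ⟨⟨⟨g, hg⟩, hga⟩, rfl⟩

/-- the data proving that the orbits of the stabiliser of `a` on `𝓑` are the fibres of `f`. -/
structure OrbData (a : α) (𝓑 : Set β) (f : β → ℕ) : Prop where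
  inv : ∀ g ∈ M24, g • a = a → ∀ x, f (g • x) = f x
  tr : ∀ x ∈ 𝓑, ∀ y ∈ 𝓑, f x = f y → ∃ g ∈ M24, g • a = a ∧ g • x = y
  closed : ∀ g ∈ M24, ∀ x ∈ 𝓑, g • x ∈ 𝓑

theorem OrbData.orbit_eq {a : α} {𝓑 : Set β} {f : β → ℕ} (O : OrbData a 𝓑 f) {x : β} (hx : x ∈ 𝓑) :
    MulAction.orbit ↥(MulAction.stabilizer M24 a) x = {y | y ∈ 𝓑 ∧ f y = f x} := by
  rw [orbit_stab_eq]
  ext y
  constructor
  · rintro ⟨g, hg, hga, rfl⟩
    exact ⟨O.closed g hg x hx, O.inv g hg hga x⟩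
  · rintro ⟨hy, hf⟩
    exact O.tr x hx y hy hf.symm

theorem OrbData.exists_rep {a : α} {𝓑 : Set β} {f : β → ℕ} (O : OrbData a 𝓑 f) {k n : ℕ}
    (c : {y | y ∈ 𝓑 ∧ f y = k}.ncard = n) (hn : 0 < n) :
    ∃ X ∈ 𝓑, MulAction.orbit ↥(MulAction.stabilizer M24 a) X = {y | y ∈ 𝓑 ∧ f y = k} := by
  have hne : {y | y ∈ 𝓑 ∧ f y = k}.Nonempty := by
    apply Set.nonempty_of_ncard_ne_zero; omega
  obtain ⟨X, hX, hk⟩ := hne
  exact ⟨X, hX, by rw [O.orbit_eq hX, hk]⟩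

theorem OrbData.orbits2 {a : α} {𝓑 : Set β} {f : β → ℕ} (O : OrbData a 𝓑 f)
    {k1 k2 n1 n2 : ℕ}
    (c1 : {y | y ∈ 𝓑 ∧ f y = k1}.ncard = n1) (c2 : {y | y ∈ 𝓑 ∧ f y = k2}.ncard = n2)
    (p1 : 0 < n1) (p2 : 0 < n2)
    (hv : ∀ y ∈ 𝓑, f y = k1 ∨ f y = k2) :
    ∃ X₁ ∈ 𝓑, ∃ X₂ ∈ 𝓑,
      (MulAction.orbit ↥(MulAction.stabilizer M24 a) X₁).ncard = n1 ∧
      (MulAction.orbit ↥(MulAction.stabilizer M24 a) X₂).ncard = n2 ∧
      𝓑 = MulAction.orbit ↥(MulAction.stabilizer M24 a) X₁ ∪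
        MulAction.orbit ↥(MulAction.stabilizer M24 a) X₂ := by
  obtain ⟨X₁, h1, e1⟩ := O.exists_rep c1 p1
  obtain ⟨X₂, h2, e2⟩ := O.exists_rep c2 p2
  refine ⟨X₁, h1, X₂, h2, by rw [e1, c1], by rw [e2, c2], ?_⟩
  rw [e1, e2]
  ext y
  simp only [Set.mem_union, Set.mem_ofPred_eq]
  constructor
  · intro hy
    rcases hv y hy with h | h
    · exact Or.inl ⟨hy, h⟩
    · exact Or.inr ⟨hy, h⟩
  · rintro (h | h) <;> exact h.1

theorem OrbData.orbits3 {a : α} {𝓑 : Set β} {f : β → ℕ} (O : OrbData a 𝓑 f)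
    {k1 k2 k3 n1 n2 n3 : ℕ}
    (c1 : {y | y ∈ 𝓑 ∧ f y = k1}.ncard = n1) (c2 : {y | y ∈ 𝓑 ∧ f y = k2}.ncard = n2)
    (c3 : {y | y ∈ 𝓑 ∧ f y = k3}.ncard = n3) (p1 : 0 < n1) (p2 : 0 < n2) (p3 : 0 < n3)
    (hv : ∀ y ∈ 𝓑, f y = k1 ∨ f y = k2 ∨ f y = k3) :
    ∃ X₁ ∈ 𝓑, ∃ X₂ ∈ 𝓑, ∃ X₃ ∈ 𝓑,
      (MulAction.orbit ↥(MulAction.stabilizer M24 a) X₁).ncard = n1 ∧
      (MulAction.orbit ↥(MulAction.stabilizer M24 a) X₂).ncard = n2 ∧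
      (MulAction.orbit ↥(MulAction.stabilizer M24 a) X₃).ncard = n3 ∧
      𝓑 = MulAction.orbit ↥(MulAction.stabilizer M24 a) X₁ ∪
        MulAction.orbit ↥(MulAction.stabilizer M24 a) X₂ ∪
        MulAction.orbit ↥(MulAction.stabilizer M24 a) X₃ := by
  obtain ⟨X₁, h1, e1⟩ := O.exists_rep c1 p1
  obtain ⟨X₂, h2, e2⟩ := O.exists_rep c2 p2
  obtain ⟨X₃, h3, e3⟩ := O.exists_rep c3 p3
  refine ⟨X₁, h1, X₂, h2, X₃, h3, by rw [e1, c1], by rw [e2, c2], by rw [e3, c3], ?_⟩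
  rw [e1, e2, e3]
  ext y
  simp only [Set.mem_union, Set.mem_ofPred_eq]
  constructor
  · intro hy
    rcases hv y hy with h | h | h
    · exact Or.inl (Or.inl ⟨hy, h⟩)
    · exact Or.inl (Or.inr ⟨hy, h⟩)
    · exact Or.inr ⟨hy, h⟩
  · rintro ((h | h) | h) <;> exact h.1

theorem OrbData.orbits4 {a : α} {𝓑 : Set β} {f : β → ℕ} (O : OrbData a 𝓑 f)
    {k1 k2 k3 k4 n1 n2 n3 n4 : ℕ}
    (c1 : {y | y ∈ 𝓑 ∧ f y = k1}.ncard = n1) (c2 : {y | y ∈ 𝓑 ∧ f y = k2}.ncard = n2)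
    (c3 : {y | y ∈ 𝓑 ∧ f y = k3}.ncard = n3) (c4 : {y | y ∈ 𝓑 ∧ f y = k4}.ncard = n4)
    (p1 : 0 < n1) (p2 : 0 < n2) (p3 : 0 < n3) (p4 : 0 < n4)
    (hv : ∀ y ∈ 𝓑, f y = k1 ∨ f y = k2 ∨ f y = k3 ∨ f y = k4) :
    ∃ X₁ ∈ 𝓑, ∃ X₂ ∈ 𝓑, ∃ X₃ ∈ 𝓑, ∃ X₄ ∈ 𝓑,
      (MulAction.orbit ↥(MulAction.stabilizer M24 a) X₁).ncard = n1 ∧
      (MulAction.orbit ↥(MulAction.stabilizer M24 a) X₂).ncard = n2 ∧
      (MulAction.orbit ↥(MulAction.stabilizer M24 a) X₃).ncard = n3 ∧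
      (MulAction.orbit ↥(MulAction.stabilizer M24 a) X₄).ncard = n4 ∧
      𝓑 = MulAction.orbit ↥(MulAction.stabilizer M24 a) X₁ ∪
        MulAction.orbit ↥(MulAction.stabilizer M24 a) X₂ ∪
        MulAction.orbit ↥(MulAction.stabilizer M24 a) X₃ ∪
        MulAction.orbit ↥(MulAction.stabilizer M24 a) X₄ := by
  obtain ⟨X₁, h1, e1⟩ := O.exists_rep c1 p1
  obtain ⟨X₂, h2, e2⟩ := O.exists_rep c2 p2
  obtain ⟨X₃, h3, e3⟩ := O.exists_rep c3 p3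
  obtain ⟨X₄, h4, e4⟩ := O.exists_rep c4 p4
  refine ⟨X₁, h1, X₂, h2, X₃, h3, X₄, h4, by rw [e1, c1], by rw [e2, c2], by rw [e3, c3],
    by rw [e4, c4], ?_⟩
  rw [e1, e2, e3, e4]
  ext y
  simp only [Set.mem_union, Set.mem_ofPred_eq]
  constructor
  · intro hy
    rcases hv y hy with h | h | h | h
    · exact Or.inl (Or.inl (Or.inl ⟨hy, h⟩))
    · exact Or.inl (Or.inl (Or.inr ⟨hy, h⟩))
    · exact Or.inl (Or.inr ⟨hy, h⟩)
    · exact Or.inr ⟨hy, h⟩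
  · rintro (((h | h) | h) | h) <;> exact h.1

/-! ### embeddings into families -/

/-- an equivariant embedding into the families of sets. -/
structure Emb (ι : α → FF) : Prop where
  eqv : ∀ (g : Equiv.Perm GolayPt) (x : α), ι (g • x) = g • ι x
  inj : Function.Injective ι

theorem emb_id : Emb (id : FF → FF) := ⟨fun _ _ => rfl, fun _ _ h => h⟩

/-- a set as a family with one member. -/
def sg (o : Finset GolayPt) : FF := {o}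

theorem emb_sg : Emb sg :=
  ⟨fun g x => by unfold sg; rw [Finset.smul_finset_singleton], fun _ _ h => Finset.singleton_injective h⟩

theorem Emb.closed {ι : β → FF} (hι : Emb ι) {𝓑 : Set β} (h : ∀ g ∈ M24, ∀ x ∈ 𝓑, g • x ∈ 𝓑) :
    ∀ g ∈ M24, ∀ x ∈ ι '' 𝓑, g • x ∈ ι '' 𝓑 := by
  rintro g hg _ ⟨x, hx, rfl⟩
  exact ⟨g • x, h g hg x hx, hι.eqv g x⟩

theorem orbData_of_engine {ιa : α → FF} (ha : Emb ιa) {ιb : β → FF} (hb : Emb ιb) (a : α)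
    (𝓑 : Set β) (w : ℕ → ℕ) (closed : ∀ g ∈ M24, ∀ x ∈ 𝓑, g • x ∈ 𝓑)
    (tr : ∀ x ∈ ιb '' 𝓑, ∀ y ∈ ιb '' 𝓑, wI w (ιa a) x = wI w (ιa a) y →
      ∃ g ∈ M24, g • ιa a = ιa a ∧ g • x = y) :
    OrbData a 𝓑 (fun x => wI w (ιa a) (ιb x)) where
  inv := by
    intro g _ hga x
    show wI w (ιa a) (ιb (g • x)) = _
    conv_lhs => rw [← hga]
    rw [ha.eqv, hb.eqv, wI_smul]
  tr := by
    intro x hx y hy hxy
    obtain ⟨g, hg, h1, h2⟩ := tr _ ⟨x, hx, rfl⟩ _ ⟨y, hy, rfl⟩ hxy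
    refine ⟨g, hg, ha.inj ?_, hb.inj ?_⟩
    · rw [ha.eqv, h1]
    · rw [hb.eqv, h2]
  closed := closed

theorem ncard_emb {ιb : β → FF} (hb : Emb ιb) (𝓑 : Set β) (F : FF → Prop) :
    {y | y ∈ 𝓑 ∧ F (ιb y)}.ncard = {x | x ∈ ιb '' 𝓑 ∧ F x}.ncard := by
  have e : {x | x ∈ ιb '' 𝓑 ∧ F x} = ιb '' {y | y ∈ 𝓑 ∧ F (ιb y)} := by
    ext x
    constructor
    · rintro ⟨⟨y, hy, rfl⟩, hF⟩
      exact ⟨y, ⟨hy, hF⟩, rfl⟩
    · rintro ⟨y, ⟨hy, hF⟩, rfl⟩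
      exact ⟨⟨y, hy, rfl⟩, hF⟩
  rw [e, Set.ncard_image_of_injective _ hb.inj]

/-! ### codewords of a given weight as families with one member -/

theorem codeEnum (n : ℕ) :
    IsEnum (sg '' wordsOfWeight (golayCode : Set (GolayPt → ZMod 2)) n) 1 4096 enc
      (fun k => Nat.beq (pc (enc k)) n) where
  card_eq := fun i _ _ => by rw [decK_one (enc_lt i), Finset.card_singleton]
  mem := fun i _ hv => by
    rw [decK_one (enc_lt i)]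
    refine ⟨unmask (enc i), ⟨unmask_enc_mem i, ?_⟩, rfl⟩
    rw [card_unmask]; exact Nat.eq_of_beq_eq_true hv
  surj := by
    rintro _ ⟨s, hs, rfl⟩
    obtain ⟨k, hk, hm⟩ := (mem_supports_iff_enc s).1 hs.1
    refine ⟨k, hk, ?_, ?_⟩
    · rw [Nat.beq_eq, ← hm, ← card_eq_pc]; exact hs.2
    · rw [decK_one (enc_lt k), ← hm, unmask_mask]; rfl
  inj := by
    intro i hi j hj _ _ h
    rw [decK_one (enc_lt i), decK_one (enc_lt j)] at h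
    exact enc_injOn hi hj (unmask_injOn (enc_lt i) (enc_lt j) (Finset.singleton_injective h))

theorem octEnum : IsEnum (sg '' octads) 1 4096 enc (fun k => Nat.beq (pc (enc k)) 8) := codeEnum 8

theorem dodEnum : IsEnum (sg '' dodecads) 1 4096 enc (fun k => Nat.beq (pc (enc k)) 12) := codeEnum 12

theorem octads_invariant : ∀ g ∈ M24, ∀ x ∈ octads, g • x ∈ octads :=
  fun _ hg _ hx => smul_mem_octads hg hx

theorem dodecads_invariant : ∀ g ∈ M24, ∀ x ∈ dodecads, g • x ∈ dodecads :=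
  fun _ hg _ hx => smul_mem_dodecads hg hx

theorem octad_eq_smul_std {o : Finset GolayPt} (ho : o ∈ octads) :
    ∃ k ∈ M24, o = k • unmask stdOctad := by
  obtain ⟨g, hg, h⟩ := octad_to_std ho
  exact ⟨g⁻¹, M24.inv_mem hg, by rw [← h, inv_smul_smul]⟩

theorem sg_smul_unmask (k : Equiv.Perm GolayPt) {m : ℕ} (hm : m < 2 ^ 24) :
    sg (k • unmask m) = k • decK 1 m := by
  rw [decK_one hm, emb_sg.eqv]; rfl

theorem card_decK_one {m : ℕ} (hm : m < 2 ^ 24) : (decK 1 m).card = 1 := by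
  rw [decK_one hm, Finset.card_singleton]

end Cfsg.Agent.Lib.Helper93.Eng
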