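import Mathlib
import Cfsg.Prelude.Def_Sporadic_a

set_option autoImplicit false

/-! Counting in Steiner systems: blocks through an `i`-set, and the intersection triangle. -/

namespace Cfsg.Agent.Lib.Helper93.St

open Finset

variable {α : Type*} [Fintype α] [DecidableEq α]

/-- the blocks as a finset -/
noncomputable def blocks (B : Set (Finset α)) : Finset (Finset α) := by
  classical exact Finset.univ.filter (· ∈ B)

theorem mem_blocks {B : Set (Finset α)} {b : Finset α} : b ∈ blocks B ↔ b ∈ B := by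
  classical simp [blocks]

theorem ncard_eq_card_filter (B : Set (Finset α)) (p : Finset α → Prop) [DecidablePred p] :
    {b : Finset α | b ∈ B ∧ p b}.ncard = ((blocks B).filter p).card := by
  rw [← Set.ncard_coe_finset]
  congr 1
  ext b
  simp [mem_blocks]

theorem ncard_eq_card_blocks (B : Set (Finset α)) : B.ncard = (blocks B).card := by
  rw [← Set.ncard_coe_finset]
  congr 1
  ext b
  simp [mem_blocks]

variable {t k : ℕ} {B : Set (Finset α)}

/-- the number of blocks through a set of at most `t` points -/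
theorem card_through (hB : Cfsg.IsSteinerSystem t k B) (S : Finset α) (hS : S.card ≤ t) :
    ((blocks B).filter (S ⊆ ·)).card * Nat.choose (k - S.card) (t - S.card) =
      Nat.choose (Fintype.card α - S.card) (t - S.card) := by
  classical
  -- the block through a `t`-set
  let f : Finset α → Finset α := fun s => if h : s.card = t then (hB.2 s h).choose else ∅
  have hf : ∀ s, s.card = t → (f s ∈ B ∧ s ⊆ f s) ∧ ∀ b, b ∈ B ∧ s ⊆ b → b = f s := by
    intro s hs
    have := (hB.2 s hs).choose_spec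
    simp only [f, hs, dif_pos]
    exact this
  have h1 := Finset.card_filter_powersetCard_subset S (Finset.univ : Finset α) t
    (Finset.subset_univ _) hS
  rw [Finset.card_univ] at h1
  rw [← h1]
  have hmaps : (((Finset.univ : Finset α).powersetCard t).filter (S ⊆ ·) : Set (Finset α)).MapsTo f
      ((blocks B).filter (S ⊆ ·)) := by
    intro s hs
    simp only [coe_filter, mem_powersetCard, subset_univ, true_and, Set.mem_ofPred_eq] at hs
    simp only [coe_filter, Set.mem_ofPred_eq, mem_blocks]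
    exact ⟨(hf s hs.1).1.1, hs.2.trans (hf s hs.1).1.2⟩
  rw [Finset.card_eq_sum_card_fiberwise hmaps]
  have hfib : ∀ b ∈ (blocks B).filter (S ⊆ ·),
      ((((Finset.univ : Finset α).powersetCard t).filter (S ⊆ ·)).filter fun s => f s = b).card =
        Nat.choose (k - S.card) (t - S.card) := by
    intro b hb
    rw [mem_filter, mem_blocks] at hb
    have : (((Finset.univ : Finset α).powersetCard t).filter (S ⊆ ·)).filter (fun s => f s = b) =
        (b.powersetCard t).filter (S ⊆ ·) := by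
      ext s
      simp only [mem_filter, mem_powersetCard, subset_univ, true_and]
      constructor
      · rintro ⟨⟨hs, hSs⟩, hfs⟩
        exact ⟨⟨hfs ▸ (hf s hs).1.2, hs⟩, hSs⟩
      · rintro ⟨⟨hsb, hs⟩, hSs⟩
        exact ⟨⟨hs, hSs⟩, ((hf s hs).2 b ⟨hb.1, hsb⟩).symm⟩
    rw [this, Finset.card_filter_powersetCard_subset S b t hb.2 hS, hB.1 b hb.1]
  rw [Finset.sum_congr rfl hfib, Finset.sum_const, smul_eq_mul]

/-- a set of at least `t` points inside a block lies in exactly one block -/
theorem card_through_of_ge (hB : Cfsg.IsSteinerSystem t k B) {b : Finset α} (hb : b ∈ B)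
    {J : Finset α} (hJ : J ⊆ b) (hJt : t ≤ J.card) :
    ((blocks B).filter (J ⊆ ·)).card = 1 := by
  rw [Finset.card_eq_one]
  refine ⟨b, ?_⟩
  ext c
  rw [mem_filter, mem_blocks, mem_singleton]
  constructor
  · rintro ⟨hc, hJc⟩
    obtain ⟨s, hsJ, hs⟩ := Finset.exists_subset_card_eq hJt
    exact (hB.2 s hs).unique ⟨hc, hsJ.trans hJc⟩ ⟨hb, hsJ.trans hJ⟩
  · rintro rfl
    exact ⟨hb, hJ⟩

/-- The intersection triangle attached to a sequence `n`. -/
def tri (n : ℕ → ℤ) : ℕ → ℕ → ℤ
  | 0, j => n j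
  | r + 1, j => tri n r j - tri n r (j + 1)

theorem card_pattern (𝓑 : Finset (Finset α)) (Y : Finset α) (n : ℕ → ℤ)
    (hn : ∀ J ⊆ Y, ((𝓑.filter (J ⊆ ·)).card : ℤ) = n J.card) (O : Finset α) :
    ∀ I : Finset α, Disjoint I O → I ⊆ Y → O ⊆ Y →
      ((𝓑.filter (fun b => I ⊆ b ∧ Disjoint b O)).card : ℤ) = tri n O.card I.card := by
  induction O using Finset.induction_on with
  | empty =>
    intro I _ hI _
    simp only [disjoint_empty_right, and_true, card_empty, tri]
    exact hn I hI
  | insert x O hx ih =>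
    intro I hIO hI hO
    have hxI : x ∉ I := fun h => (Finset.disjoint_left.1 hIO) h (mem_insert_self x O)
    have hIO' : Disjoint I O := Finset.disjoint_of_subset_right (subset_insert x O) hIO
    have hO' : O ⊆ Y := (subset_insert x O).trans hO
    have hxY : x ∈ Y := hO (mem_insert_self x O)
    have h1 := ih I hIO' hI hO'
    have h2 := ih (insert x I) (by
      rw [Finset.disjoint_insert_left]; exact ⟨hx, hIO'⟩) (Finset.insert_subset hxY hI) hO'
    rw [Finset.card_insert_of_notMem hx, tri, ← h1]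
    rw [Finset.card_insert_of_notMem hxI] at h2
    rw [← h2]
    have hsplit : 𝓑.filter (fun b => I ⊆ b ∧ Disjoint b O) =
        𝓑.filter (fun b => I ⊆ b ∧ Disjoint b (insert x O)) ∪
          𝓑.filter (fun b => insert x I ⊆ b ∧ Disjoint b O) := by
      ext b
      simp only [mem_filter, mem_union, Finset.disjoint_insert_right, Finset.insert_subset_iff]
      by_cases hxb : x ∈ b <;> simp [hxb]
    have hdisj : Disjoint (𝓑.filter (fun b => I ⊆ b ∧ Disjoint b (insert x O)))
        (𝓑.filter (fun b => insert x I ⊆ b ∧ Disjoint b O)) := by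
      rw [Finset.disjoint_left]
      intro b hb hb'
      simp only [mem_filter, Finset.disjoint_insert_right, Finset.insert_subset_iff] at hb hb'
      exact hb.2.2.1 hb'.2.1.1
    rw [hsplit, Finset.card_union_of_disjoint hdisj]
    push_cast
    ring

theorem card_inter_eq (𝓑 : Finset (Finset α)) (Y : Finset α) (n : ℕ → ℤ)
    (hn : ∀ J ⊆ Y, ((𝓑.filter (J ⊆ ·)).card : ℤ) = n J.card) {I : Finset α} (hI : I ⊆ Y) :
    ((𝓑.filter (fun b => b ∩ Y = I)).card : ℤ) = tri n (Y.card - I.card) I.card := by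
  have h := card_pattern 𝓑 Y n hn (Y \ I) I Finset.disjoint_sdiff hI Finset.sdiff_subset
  rw [Finset.card_sdiff_of_subset hI] at h
  rw [← h]
  congr 2
  ext b
  simp only [mem_filter, and_congr_right_iff]
  intro _
  constructor
  · rintro rfl
    refine ⟨Finset.inter_subset_left, ?_⟩
    rw [Finset.disjoint_left]
    intro a ha ha'
    rw [mem_sdiff, mem_inter] at ha'
    exact ha'.2 ⟨ha, ha'.1⟩
  · rintro ⟨hIb, hd⟩
    ext a
    rw [mem_inter]
    constructor
    · rintro ⟨hab, haY⟩
      by_contra haI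
      exact (Finset.disjoint_left.1 hd) hab (mem_sdiff.2 ⟨haY, haI⟩)
    · intro haI
      exact ⟨hIb haI, hI haI⟩

theorem card_inter_card_eq (𝓑 : Finset (Finset α)) (Y : Finset α) (n : ℕ → ℤ)
    (hn : ∀ J ⊆ Y, ((𝓑.filter (J ⊆ ·)).card : ℤ) = n J.card) (j : ℕ) :
    ((𝓑.filter (fun b => (b ∩ Y).card = j)).card : ℤ) =
      (Y.card.choose j : ℤ) * tri n (Y.card - j) j := by
  have hmaps : ((𝓑.filter (fun b => (b ∩ Y).card = j)) : Set (Finset α)).MapsTo (fun b => b ∩ Y)
      (Y.powersetCard j) := by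
    intro b hb
    simp only [coe_filter, Set.mem_ofPred_eq] at hb
    simp only [mem_coe, mem_powersetCard]
    exact ⟨Finset.inter_subset_right, hb.2⟩
  rw [Finset.card_eq_sum_card_fiberwise hmaps]
  push_cast
  have : ∀ I ∈ Y.powersetCard j,
      (((𝓑.filter (fun b => (b ∩ Y).card = j)).filter (fun b => b ∩ Y = I)).card : ℤ) =
        tri n (Y.card - j) j := by
    intro I hI
    rw [mem_powersetCard] at hI
    have h := card_inter_eq 𝓑 Y n hn hI.1
    rw [hI.2] at h
    rw [← h]
    congr 2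
    ext b
    simp only [mem_filter]
    constructor
    · rintro ⟨⟨hb, _⟩, hbI⟩; exact ⟨hb, hbI⟩
    · rintro ⟨hb, hbI⟩; exact ⟨⟨hb, by rw [hbI, hI.2]⟩, hbI⟩
  rw [Finset.sum_congr rfl this, Finset.sum_const, Finset.card_powersetCard]
  simp

/-- the numbers of blocks through the subsets of a set of at most `t` points -/
theorem through_eq (hB : Cfsg.IsSteinerSystem t k B) (htk : t ≤ k) (n : ℕ → ℤ)
    (hsmall : ∀ i ≤ t, n i * (Nat.choose (k - i) (t - i) : ℤ) =
      (Nat.choose (Fintype.card α - i) (t - i) : ℤ))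
    (J : Finset α) (hJ : J.card ≤ t) : (((blocks B).filter (J ⊆ ·)).card : ℤ) = n J.card := by
  have h1 := card_through hB J hJ
  have h2 := hsmall J.card hJ
  have h3 : (Nat.choose (k - J.card) (t - J.card) : ℤ) ≠ 0 := by
    have : 0 < Nat.choose (k - J.card) (t - J.card) := Nat.choose_pos (by omega)
    exact_mod_cast this.ne'
  apply mul_right_cancel₀ h3
  rw [h2, ← h1]
  push_cast
  ring

/-- the numbers of blocks through the subsets of a block -/
theorem through_eq_of_block (hB : Cfsg.IsSteinerSystem t k B) (htk : t ≤ k) (n : ℕ → ℤ)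
    (hsmall : ∀ i ≤ t, n i * (Nat.choose (k - i) (t - i) : ℤ) =
      (Nat.choose (Fintype.card α - i) (t - i) : ℤ))
    (hbig : ∀ i ≤ k, t ≤ i → n i = 1) {b : Finset α} (hb : b ∈ B)
    (J : Finset α) (hJ : J ⊆ b) : (((blocks B).filter (J ⊆ ·)).card : ℤ) = n J.card := by
  by_cases hJt : J.card ≤ t
  · exact through_eq hB htk n hsmall J hJt
  · have hJk : J.card ≤ k := by rw [← hB.1 b hb]; exact Finset.card_le_card hJ
    rw [card_through_of_ge hB hb hJ (by omega), hbig J.card hJk (by omega)]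
    simp

/-- sequence from a list -/
def seq (l : List ℤ) : ℕ → ℤ := fun j => l.getD j 0

/-- `S(5,8,24)` -/
def n24 : ℕ → ℤ := seq [759, 253, 77, 21, 5, 1, 1, 1, 1]
/-- `S(4,7,23)` -/
def n23 : ℕ → ℤ := seq [253, 77, 21, 5, 1, 1, 1, 1]
/-- `S(3,6,22)` -/
def n22 : ℕ → ℤ := seq [77, 21, 5, 1, 1, 1, 1]
/-- `S(5,6,12)` -/
def n12 : ℕ → ℤ := seq [132, 66, 30, 12, 4, 1, 1]

theorem small24 : ∀ i ≤ 5, n24 i * (Nat.choose (8 - i) (5 - i) : ℤ) = (Nat.choose (24 - i) (5 - i) : ℤ) := by
  decide
theorem big24 : ∀ i ≤ 8, 5 ≤ i → n24 i = 1 := by decide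
theorem small23 : ∀ i ≤ 4, n23 i * (Nat.choose (7 - i) (4 - i) : ℤ) = (Nat.choose (23 - i) (4 - i) : ℤ) := by
  decide
theorem big23 : ∀ i ≤ 7, 4 ≤ i → n23 i = 1 := by decide
theorem small22 : ∀ i ≤ 3, n22 i * (Nat.choose (6 - i) (3 - i) : ℤ) = (Nat.choose (22 - i) (3 - i) : ℤ) := by
  decide
theorem big22 : ∀ i ≤ 6, 3 ≤ i → n22 i = 1 := by decide
theorem small12 : ∀ i ≤ 5, n12 i * (Nat.choose (6 - i) (5 - i) : ℤ) = (Nat.choose (12 - i) (5 - i) : ℤ) := by
  decide
theorem big12 : ∀ i ≤ 6, 5 ≤ i → n12 i = 1 := by decide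

/-- If the triangle entry vanishes, no block meets `b` in `j` points. -/
theorem inter_card_ne (hB : Cfsg.IsSteinerSystem t k B) (htk : t ≤ k) (n : ℕ → ℤ)
    (hsmall : ∀ i ≤ t, n i * (Nat.choose (k - i) (t - i) : ℤ) =
      (Nat.choose (Fintype.card α - i) (t - i) : ℤ))
    (hbig : ∀ i ≤ k, t ≤ i → n i = 1) {b c : Finset α} (hb : b ∈ B) (hc : c ∈ B)
    (j : ℕ) (hj : tri n (k - j) j = 0) : (c ∩ b).card ≠ j := by
  intro hcb
  have h := card_inter_card_eq (blocks B) b n (through_eq_of_block hB htk n hsmall hbig hb) j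
  rw [hB.1 b hb, hj, mul_zero] at h
  have h0 : ((blocks B).filter (fun c => (c ∩ b).card = j)).card = 0 := by exact_mod_cast h
  rw [Finset.card_eq_zero] at h0
  have : c ∈ (blocks B).filter (fun c => (c ∩ b).card = j) := by
    rw [mem_filter, mem_blocks]; exact ⟨hc, hcb⟩
  rw [h0] at this
  simp at this

theorem eq_of_inter_card (hB : Cfsg.IsSteinerSystem t k B) {b c : Finset α} (hb : b ∈ B)
    (hc : c ∈ B) (h : (c ∩ b).card = k) : b = c := by
  have h1 : c ∩ b = b := Finset.eq_of_subset_of_card_le Finset.inter_subset_right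
    (by rw [h, hB.1 b hb])
  have h2 : c ∩ b = c := Finset.eq_of_subset_of_card_le Finset.inter_subset_left
    (by rw [h, hB.1 c hc])
  rw [← h1, h2]

end Cfsg.Agent.Lib.Helper93.St
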